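import Cfsg.Agent.H3.Mu.F42.L0T

/-! Generated labelled table of a central extension. -/

set_option autoImplicit false
set_option maxRecDepth 100000

open Cfsg.Agent.L0

namespace Cfsg.Agent.H3.F42

theorem L0chkb0 : allR L0chkf 8 0 = true := by decide +kernel
theorem L0chkb1 : allR L0chkf 8 1 = true := by decide +kernel
theorem L0chkb2 : allR L0chkf 8 2 = true := by decide +kernel
theorem L0chkb3 : allR L0chkf 8 3 = true := by decide +kernel
theorem L0chkb4 : allR L0chkf 8 4 = true := by decide +kernel
theorem L0chkb5 : allR L0chkf 8 5 = true := by decide +kernel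
theorem L0chkb6 : allR L0chkf 8 6 = true := by decide +kernel
theorem L0chkb7 : allR L0chkf 8 7 = true := by decide +kernel
theorem L0chkb8 : allR L0chkf 8 8 = true := by decide +kernel
theorem L0chkb9 : allR L0chkf 8 9 = true := by decide +kernel
theorem L0chkb10 : allR L0chkf 8 10 = true := by decide +kernel
theorem L0chkb11 : allR L0chkf 8 11 = true := by decide +kernel
theorem L0chkb12 : allR L0chkf 8 12 = true := by decide +kernel
theorem L0chkb13 : allR L0chkf 8 13 = true := by decide +kernel
theorem L0chkb14 : allR L0chkf 8 14 = true := by decide +kernel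
theorem L0chkb15 : allR L0chkf 8 15 = true := by decide +kernel
theorem L0chkb16 : allR L0chkf 8 16 = true := by decide +kernel
theorem L0chkb17 : allR L0chkf 8 17 = true := by decide +kernel

end Cfsg.Agent.H3.F42
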