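import Cfsg.Agent.H3.Mu.F42.L0T

/-! Generated labelled table of a central extension. -/

set_option autoImplicit false
set_option maxRecDepth 100000

open Cfsg.Agent.L0

namespace Cfsg.Agent.H3.F42

theorem L0chkb18 : allR L0chkf 8 18 = true := by decide +kernel
theorem L0chkb19 : allR L0chkf 8 19 = true := by decide +kernel
theorem L0chkb20 : allR L0chkf 8 20 = true := by decide +kernel
theorem L0chkb21 : allR L0chkf 8 21 = true := by decide +kernel
theorem L0chkb22 : allR L0chkf 8 22 = true := by decide +kernel
theorem L0chkb23 : allR L0chkf 8 23 = true := by decide +kernel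
theorem L0chkb24 : allR L0chkf 8 24 = true := by decide +kernel
theorem L0chkb25 : allR L0chkf 8 25 = true := by decide +kernel
theorem L0chkb26 : allR L0chkf 8 26 = true := by decide +kernel
theorem L0chkb27 : allR L0chkf 8 27 = true := by decide +kernel
theorem L0chkb28 : allR L0chkf 8 28 = true := by decide +kernel
theorem L0chkb29 : allR L0chkf 8 29 = true := by decide +kernel
theorem L0chkb30 : allR L0chkf 8 30 = true := by decide +kernel
theorem L0chkb31 : allR L0chkf 8 31 = true := by decide +kernel
theorem L0chkb32 : allR L0chkf 8 32 = true := by decide +kernel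
theorem L0chkb33 : allR L0chkf 8 33 = true := by decide +kernel
theorem L0chkb34 : allR L0chkf 8 34 = true := by decide +kernel
theorem L0chkb35 : allR L0chkf 8 35 = true := by decide +kernel

end Cfsg.Agent.H3.F42
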