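import Cfsg.Agent.H3.Mu.F42.L0T

/-! Generated labelled table of a central extension. -/

set_option autoImplicit false
set_option maxRecDepth 100000

open Cfsg.Agent.L0

namespace Cfsg.Agent.H3.F42

theorem L0chkb180 : allR L0chkf 8 180 = true := by decide +kernel
theorem L0chkb181 : allR L0chkf 8 181 = true := by decide +kernel
theorem L0chkb182 : allR L0chkf 8 182 = true := by decide +kernel
theorem L0chkb183 : allR L0chkf 8 183 = true := by decide +kernel
theorem L0chkb184 : allR L0chkf 8 184 = true := by decide +kernel
theorem L0chkb185 : allR L0chkf 8 185 = true := by decide +kernel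
theorem L0chkb186 : allR L0chkf 8 186 = true := by decide +kernel
theorem L0chkb187 : allR L0chkf 8 187 = true := by decide +kernel
theorem L0chkb188 : allR L0chkf 8 188 = true := by decide +kernel
theorem L0chkb189 : allR L0chkf 8 189 = true := by decide +kernel
theorem L0chkb190 : allR L0chkf 8 190 = true := by decide +kernel
theorem L0chkb191 : allR L0chkf 8 191 = true := by decide +kernel
theorem L0chkb192 : allR L0chkf 8 192 = true := by decide +kernel
theorem L0chkb193 : allR L0chkf 8 193 = true := by decide +kernel
theorem L0chkb194 : allR L0chkf 8 194 = true := by decide +kernel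
theorem L0chkb195 : allR L0chkf 8 195 = true := by decide +kernel
theorem L0chkb196 : allR L0chkf 8 196 = true := by decide +kernel
theorem L0chkb197 : allR L0chkf 8 197 = true := by decide +kernel

end Cfsg.Agent.H3.F42
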