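import Cfsg.Agent.H3.Mu.F42.L0T

/-! Generated labelled table of a central extension. -/

set_option autoImplicit false
set_option maxRecDepth 100000

open Cfsg.Agent.L0

namespace Cfsg.Agent.H3.F42

theorem L0chkb198 : allR L0chkf 8 198 = true := by decide +kernel
theorem L0chkb199 : allR L0chkf 8 199 = true := by decide +kernel
theorem L0chkb200 : allR L0chkf 8 200 = true := by decide +kernel
theorem L0chkb201 : allR L0chkf 8 201 = true := by decide +kernel
theorem L0chkb202 : allR L0chkf 8 202 = true := by decide +kernel
theorem L0chkb203 : allR L0chkf 8 203 = true := by decide +kernel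
theorem L0chkb204 : allR L0chkf 8 204 = true := by decide +kernel
theorem L0chkb205 : allR L0chkf 8 205 = true := by decide +kernel
theorem L0chkb206 : allR L0chkf 8 206 = true := by decide +kernel
theorem L0chkb207 : allR L0chkf 8 207 = true := by decide +kernel
theorem L0chkb208 : allR L0chkf 8 208 = true := by decide +kernel
theorem L0chkb209 : allR L0chkf 8 209 = true := by decide +kernel
theorem L0chkb210 : allR L0chkf 8 210 = true := by decide +kernel
theorem L0chkb211 : allR L0chkf 8 211 = true := by decide +kernel
theorem L0chkb212 : allR L0chkf 8 212 = true := by decide +kernel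
theorem L0chkb213 : allR L0chkf 8 213 = true := by decide +kernel
theorem L0chkb214 : allR L0chkf 8 214 = true := by decide +kernel
theorem L0chkb215 : allR L0chkf 8 215 = true := by decide +kernel

end Cfsg.Agent.H3.F42
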