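import Cfsg.Agent.H3.Mu.F42.L0T

/-! Generated labelled table of a central extension. -/

set_option autoImplicit false
set_option maxRecDepth 100000

open Cfsg.Agent.L0

namespace Cfsg.Agent.H3.F42

theorem L0chkb216 : allR L0chkf 8 216 = true := by decide +kernel
theorem L0chkb217 : allR L0chkf 8 217 = true := by decide +kernel
theorem L0chkb218 : allR L0chkf 8 218 = true := by decide +kernel
theorem L0chkb219 : allR L0chkf 8 219 = true := by decide +kernel
theorem L0chkb220 : allR L0chkf 8 220 = true := by decide +kernel
theorem L0chkb221 : allR L0chkf 8 221 = true := by decide +kernel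
theorem L0chkb222 : allR L0chkf 8 222 = true := by decide +kernel
theorem L0chkb223 : allR L0chkf 8 223 = true := by decide +kernel
theorem L0chkb224 : allR L0chkf 8 224 = true := by decide +kernel
theorem L0chkb225 : allR L0chkf 8 225 = true := by decide +kernel
theorem L0chkb226 : allR L0chkf 8 226 = true := by decide +kernel
theorem L0chkb227 : allR L0chkf 8 227 = true := by decide +kernel
theorem L0chkb228 : allR L0chkf 8 228 = true := by decide +kernel
theorem L0chkb229 : allR L0chkf 8 229 = true := by decide +kernel
theorem L0chkb230 : allR L0chkf 8 230 = true := by decide +kernel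
theorem L0chkb231 : allR L0chkf 8 231 = true := by decide +kernel
theorem L0chkb232 : allR L0chkf 8 232 = true := by decide +kernel
theorem L0chkb233 : allR L0chkf 8 233 = true := by decide +kernel

end Cfsg.Agent.H3.F42
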