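import Cfsg.Agent.H3.Mu.F42.L0T

/-! Generated labelled table of a central extension. -/

set_option autoImplicit false
set_option maxRecDepth 100000

open Cfsg.Agent.L0

namespace Cfsg.Agent.H3.F42

theorem L0chkb234 : allR L0chkf 8 234 = true := by decide +kernel
theorem L0chkb235 : allR L0chkf 8 235 = true := by decide +kernel
theorem L0chkb236 : allR L0chkf 8 236 = true := by decide +kernel
theorem L0chkb237 : allR L0chkf 8 237 = true := by decide +kernel
theorem L0chkb238 : allR L0chkf 8 238 = true := by decide +kernel
theorem L0chkb239 : allR L0chkf 8 239 = true := by decide +kernel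
theorem L0chkb240 : allR L0chkf 8 240 = true := by decide +kernel
theorem L0chkb241 : allR L0chkf 8 241 = true := by decide +kernel
theorem L0chkb242 : allR L0chkf 8 242 = true := by decide +kernel
theorem L0chkb243 : allR L0chkf 8 243 = true := by decide +kernel
theorem L0chkb244 : allR L0chkf 8 244 = true := by decide +kernel
theorem L0chkb245 : allR L0chkf 8 245 = true := by decide +kernel
theorem L0chkb246 : allR L0chkf 8 246 = true := by decide +kernel
theorem L0chkb247 : allR L0chkf 8 247 = true := by decide +kernel
theorem L0chkb248 : allR L0chkf 8 248 = true := by decide +kernel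
theorem L0chkb249 : allR L0chkf 8 249 = true := by decide +kernel
theorem L0chkb250 : allR L0chkf 8 250 = true := by decide +kernel
theorem L0chkb251 : allR L0chkf 8 251 = true := by decide +kernel

end Cfsg.Agent.H3.F42
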