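import Cfsg.Agent.H3.Mu.F42.L0T

/-! Generated labelled table of a central extension. -/

set_option autoImplicit false
set_option maxRecDepth 100000

open Cfsg.Agent.L0

namespace Cfsg.Agent.H3.F42

theorem L0chkb252 : allR L0chkf 8 252 = true := by decide +kernel
theorem L0chkb253 : allR L0chkf 8 253 = true := by decide +kernel
theorem L0chkb254 : allR L0chkf 8 254 = true := by decide +kernel
theorem L0chkb255 : allR L0chkf 8 255 = true := by decide +kernel
theorem L0chkb256 : allR L0chkf 8 256 = true := by decide +kernel
theorem L0chkb257 : allR L0chkf 8 257 = true := by decide +kernel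
theorem L0chkb258 : allR L0chkf 8 258 = true := by decide +kernel
theorem L0chkb259 : allR L0chkf 8 259 = true := by decide +kernel
theorem L0chkb260 : allR L0chkf 8 260 = true := by decide +kernel
theorem L0chkb261 : allR L0chkf 8 261 = true := by decide +kernel
theorem L0chkb262 : allR L0chkf 8 262 = true := by decide +kernel
theorem L0chkb263 : allR L0chkf 8 263 = true := by decide +kernel
theorem L0chkb264 : allR L0chkf 8 264 = true := by decide +kernel
theorem L0chkb265 : allR L0chkf 8 265 = true := by decide +kernel
theorem L0chkb266 : allR L0chkf 8 266 = true := by decide +kernel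
theorem L0chkb267 : allR L0chkf 8 267 = true := by decide +kernel
theorem L0chkb268 : allR L0chkf 8 268 = true := by decide +kernel
theorem L0chkb269 : allR L0chkf 8 269 = true := by decide +kernel

end Cfsg.Agent.H3.F42
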