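import Cfsg.Agent.H3.Mu.F42.L0T

/-! Generated labelled table of a central extension. -/

set_option autoImplicit false
set_option maxRecDepth 100000

open Cfsg.Agent.L0

namespace Cfsg.Agent.H3.F42

theorem L0chkb270 : allR L0chkf 8 270 = true := by decide +kernel
theorem L0chkb271 : allR L0chkf 8 271 = true := by decide +kernel
theorem L0chkb272 : allR L0chkf 8 272 = true := by decide +kernel

end Cfsg.Agent.H3.F42
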