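import Cfsg.Agent.H3.Mu.F42.L0T

/-! Generated labelled table of a central extension. -/

set_option autoImplicit false
set_option maxRecDepth 100000

open Cfsg.Agent.L0

namespace Cfsg.Agent.H3.F42

theorem L0chkb36 : allR L0chkf 8 36 = true := by decide +kernel
theorem L0chkb37 : allR L0chkf 8 37 = true := by decide +kernel
theorem L0chkb38 : allR L0chkf 8 38 = true := by decide +kernel
theorem L0chkb39 : allR L0chkf 8 39 = true := by decide +kernel
theorem L0chkb40 : allR L0chkf 8 40 = true := by decide +kernel
theorem L0chkb41 : allR L0chkf 8 41 = true := by decide +kernel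
theorem L0chkb42 : allR L0chkf 8 42 = true := by decide +kernel
theorem L0chkb43 : allR L0chkf 8 43 = true := by decide +kernel
theorem L0chkb44 : allR L0chkf 8 44 = true := by decide +kernel
theorem L0chkb45 : allR L0chkf 8 45 = true := by decide +kernel
theorem L0chkb46 : allR L0chkf 8 46 = true := by decide +kernel
theorem L0chkb47 : allR L0chkf 8 47 = true := by decide +kernel
theorem L0chkb48 : allR L0chkf 8 48 = true := by decide +kernel
theorem L0chkb49 : allR L0chkf 8 49 = true := by decide +kernel
theorem L0chkb50 : allR L0chkf 8 50 = true := by decide +kernel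
theorem L0chkb51 : allR L0chkf 8 51 = true := by decide +kernel
theorem L0chkb52 : allR L0chkf 8 52 = true := by decide +kernel
theorem L0chkb53 : allR L0chkf 8 53 = true := by decide +kernel

end Cfsg.Agent.H3.F42
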