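import Cfsg.Agent.H3.Mu.F42.L0T

/-! Generated labelled table of a central extension. -/

set_option autoImplicit false
set_option maxRecDepth 100000

open Cfsg.Agent.L0

namespace Cfsg.Agent.H3.F42

theorem L0chkb54 : allR L0chkf 8 54 = true := by decide +kernel
theorem L0chkb55 : allR L0chkf 8 55 = true := by decide +kernel
theorem L0chkb56 : allR L0chkf 8 56 = true := by decide +kernel
theorem L0chkb57 : allR L0chkf 8 57 = true := by decide +kernel
theorem L0chkb58 : allR L0chkf 8 58 = true := by decide +kernel
theorem L0chkb59 : allR L0chkf 8 59 = true := by decide +kernel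
theorem L0chkb60 : allR L0chkf 8 60 = true := by decide +kernel
theorem L0chkb61 : allR L0chkf 8 61 = true := by decide +kernel
theorem L0chkb62 : allR L0chkf 8 62 = true := by decide +kernel
theorem L0chkb63 : allR L0chkf 8 63 = true := by decide +kernel
theorem L0chkb64 : allR L0chkf 8 64 = true := by decide +kernel
theorem L0chkb65 : allR L0chkf 8 65 = true := by decide +kernel
theorem L0chkb66 : allR L0chkf 8 66 = true := by decide +kernel
theorem L0chkb67 : allR L0chkf 8 67 = true := by decide +kernel
theorem L0chkb68 : allR L0chkf 8 68 = true := by decide +kernel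
theorem L0chkb69 : allR L0chkf 8 69 = true := by decide +kernel
theorem L0chkb70 : allR L0chkf 8 70 = true := by decide +kernel
theorem L0chkb71 : allR L0chkf 8 71 = true := by decide +kernel

end Cfsg.Agent.H3.F42
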