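import Cfsg.Agent.H3.Mu.F42.L0T

/-! Generated labelled table of a central extension. -/

set_option autoImplicit false
set_option maxRecDepth 100000

open Cfsg.Agent.L0

namespace Cfsg.Agent.H3.F42

theorem L0chkb72 : allR L0chkf 8 72 = true := by decide +kernel
theorem L0chkb73 : allR L0chkf 8 73 = true := by decide +kernel
theorem L0chkb74 : allR L0chkf 8 74 = true := by decide +kernel
theorem L0chkb75 : allR L0chkf 8 75 = true := by decide +kernel
theorem L0chkb76 : allR L0chkf 8 76 = true := by decide +kernel
theorem L0chkb77 : allR L0chkf 8 77 = true := by decide +kernel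
theorem L0chkb78 : allR L0chkf 8 78 = true := by decide +kernel
theorem L0chkb79 : allR L0chkf 8 79 = true := by decide +kernel
theorem L0chkb80 : allR L0chkf 8 80 = true := by decide +kernel
theorem L0chkb81 : allR L0chkf 8 81 = true := by decide +kernel
theorem L0chkb82 : allR L0chkf 8 82 = true := by decide +kernel
theorem L0chkb83 : allR L0chkf 8 83 = true := by decide +kernel
theorem L0chkb84 : allR L0chkf 8 84 = true := by decide +kernel
theorem L0chkb85 : allR L0chkf 8 85 = true := by decide +kernel
theorem L0chkb86 : allR L0chkf 8 86 = true := by decide +kernel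
theorem L0chkb87 : allR L0chkf 8 87 = true := by decide +kernel
theorem L0chkb88 : allR L0chkf 8 88 = true := by decide +kernel
theorem L0chkb89 : allR L0chkf 8 89 = true := by decide +kernel

end Cfsg.Agent.H3.F42
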