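import Cfsg.Agent.H3.Mu.F42.L0T

/-! Generated labelled table of a central extension. -/

set_option autoImplicit false
set_option maxRecDepth 100000

open Cfsg.Agent.L0

namespace Cfsg.Agent.H3.F42

theorem L0chkb90 : allR L0chkf 8 90 = true := by decide +kernel
theorem L0chkb91 : allR L0chkf 8 91 = true := by decide +kernel
theorem L0chkb92 : allR L0chkf 8 92 = true := by decide +kernel
theorem L0chkb93 : allR L0chkf 8 93 = true := by decide +kernel
theorem L0chkb94 : allR L0chkf 8 94 = true := by decide +kernel
theorem L0chkb95 : allR L0chkf 8 95 = true := by decide +kernel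
theorem L0chkb96 : allR L0chkf 8 96 = true := by decide +kernel
theorem L0chkb97 : allR L0chkf 8 97 = true := by decide +kernel
theorem L0chkb98 : allR L0chkf 8 98 = true := by decide +kernel
theorem L0chkb99 : allR L0chkf 8 99 = true := by decide +kernel
theorem L0chkb100 : allR L0chkf 8 100 = true := by decide +kernel
theorem L0chkb101 : allR L0chkf 8 101 = true := by decide +kernel
theorem L0chkb102 : allR L0chkf 8 102 = true := by decide +kernel
theorem L0chkb103 : allR L0chkf 8 103 = true := by decide +kernel
theorem L0chkb104 : allR L0chkf 8 104 = true := by decide +kernel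
theorem L0chkb105 : allR L0chkf 8 105 = true := by decide +kernel
theorem L0chkb106 : allR L0chkf 8 106 = true := by decide +kernel
theorem L0chkb107 : allR L0chkf 8 107 = true := by decide +kernel

end Cfsg.Agent.H3.F42
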