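import Cfsg.Agent.H3.Mu.F42.L0T

/-! Generated labelled table of a central extension. -/

set_option autoImplicit false
set_option maxRecDepth 100000

open Cfsg.Agent.L0

namespace Cfsg.Agent.H3.F42

theorem L0chkb108 : allR L0chkf 8 108 = true := by decide +kernel
theorem L0chkb109 : allR L0chkf 8 109 = true := by decide +kernel
theorem L0chkb110 : allR L0chkf 8 110 = true := by decide +kernel
theorem L0chkb111 : allR L0chkf 8 111 = true := by decide +kernel
theorem L0chkb112 : allR L0chkf 8 112 = true := by decide +kernel
theorem L0chkb113 : allR L0chkf 8 113 = true := by decide +kernel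
theorem L0chkb114 : allR L0chkf 8 114 = true := by decide +kernel
theorem L0chkb115 : allR L0chkf 8 115 = true := by decide +kernel
theorem L0chkb116 : allR L0chkf 8 116 = true := by decide +kernel
theorem L0chkb117 : allR L0chkf 8 117 = true := by decide +kernel
theorem L0chkb118 : allR L0chkf 8 118 = true := by decide +kernel
theorem L0chkb119 : allR L0chkf 8 119 = true := by decide +kernel
theorem L0chkb120 : allR L0chkf 8 120 = true := by decide +kernel
theorem L0chkb121 : allR L0chkf 8 121 = true := by decide +kernel
theorem L0chkb122 : allR L0chkf 8 122 = true := by decide +kernel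
theorem L0chkb123 : allR L0chkf 8 123 = true := by decide +kernel
theorem L0chkb124 : allR L0chkf 8 124 = true := by decide +kernel
theorem L0chkb125 : allR L0chkf 8 125 = true := by decide +kernel

end Cfsg.Agent.H3.F42
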