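import Cfsg.Agent.H3.Mu.F42.L0T

/-! Generated labelled table of a central extension. -/

set_option autoImplicit false
set_option maxRecDepth 100000

open Cfsg.Agent.L0

namespace Cfsg.Agent.H3.F42

theorem L0chkb126 : allR L0chkf 8 126 = true := by decide +kernel
theorem L0chkb127 : allR L0chkf 8 127 = true := by decide +kernel
theorem L0chkb128 : allR L0chkf 8 128 = true := by decide +kernel
theorem L0chkb129 : allR L0chkf 8 129 = true := by decide +kernel
theorem L0chkb130 : allR L0chkf 8 130 = true := by decide +kernel
theorem L0chkb131 : allR L0chkf 8 131 = true := by decide +kernel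
theorem L0chkb132 : allR L0chkf 8 132 = true := by decide +kernel
theorem L0chkb133 : allR L0chkf 8 133 = true := by decide +kernel
theorem L0chkb134 : allR L0chkf 8 134 = true := by decide +kernel
theorem L0chkb135 : allR L0chkf 8 135 = true := by decide +kernel
theorem L0chkb136 : allR L0chkf 8 136 = true := by decide +kernel
theorem L0chkb137 : allR L0chkf 8 137 = true := by decide +kernel
theorem L0chkb138 : allR L0chkf 8 138 = true := by decide +kernel
theorem L0chkb139 : allR L0chkf 8 139 = true := by decide +kernel
theorem L0chkb140 : allR L0chkf 8 140 = true := by decide +kernel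
theorem L0chkb141 : allR L0chkf 8 141 = true := by decide +kernel
theorem L0chkb142 : allR L0chkf 8 142 = true := by decide +kernel
theorem L0chkb143 : allR L0chkf 8 143 = true := by decide +kernel

end Cfsg.Agent.H3.F42
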