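import Cfsg.Agent.H3.Mu.F42.L0T

/-! Generated labelled table of a central extension. -/

set_option autoImplicit false
set_option maxRecDepth 100000

open Cfsg.Agent.L0

namespace Cfsg.Agent.H3.F42

theorem L0chkb144 : allR L0chkf 8 144 = true := by decide +kernel
theorem L0chkb145 : allR L0chkf 8 145 = true := by decide +kernel
theorem L0chkb146 : allR L0chkf 8 146 = true := by decide +kernel
theorem L0chkb147 : allR L0chkf 8 147 = true := by decide +kernel
theorem L0chkb148 : allR L0chkf 8 148 = true := by decide +kernel
theorem L0chkb149 : allR L0chkf 8 149 = true := by decide +kernel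
theorem L0chkb150 : allR L0chkf 8 150 = true := by decide +kernel
theorem L0chkb151 : allR L0chkf 8 151 = true := by decide +kernel
theorem L0chkb152 : allR L0chkf 8 152 = true := by decide +kernel
theorem L0chkb153 : allR L0chkf 8 153 = true := by decide +kernel
theorem L0chkb154 : allR L0chkf 8 154 = true := by decide +kernel
theorem L0chkb155 : allR L0chkf 8 155 = true := by decide +kernel
theorem L0chkb156 : allR L0chkf 8 156 = true := by decide +kernel
theorem L0chkb157 : allR L0chkf 8 157 = true := by decide +kernel
theorem L0chkb158 : allR L0chkf 8 158 = true := by decide +kernel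
theorem L0chkb159 : allR L0chkf 8 159 = true := by decide +kernel
theorem L0chkb160 : allR L0chkf 8 160 = true := by decide +kernel
theorem L0chkb161 : allR L0chkf 8 161 = true := by decide +kernel

end Cfsg.Agent.H3.F42
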