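import Cfsg.Agent.H3.Mu.F42.L0T

/-! Generated labelled table of a central extension. -/

set_option autoImplicit false
set_option maxRecDepth 100000

open Cfsg.Agent.L0

namespace Cfsg.Agent.H3.F42

theorem L0chkb162 : allR L0chkf 8 162 = true := by decide +kernel
theorem L0chkb163 : allR L0chkf 8 163 = true := by decide +kernel
theorem L0chkb164 : allR L0chkf 8 164 = true := by decide +kernel
theorem L0chkb165 : allR L0chkf 8 165 = true := by decide +kernel
theorem L0chkb166 : allR L0chkf 8 166 = true := by decide +kernel
theorem L0chkb167 : allR L0chkf 8 167 = true := by decide +kernel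
theorem L0chkb168 : allR L0chkf 8 168 = true := by decide +kernel
theorem L0chkb169 : allR L0chkf 8 169 = true := by decide +kernel
theorem L0chkb170 : allR L0chkf 8 170 = true := by decide +kernel
theorem L0chkb171 : allR L0chkf 8 171 = true := by decide +kernel
theorem L0chkb172 : allR L0chkf 8 172 = true := by decide +kernel
theorem L0chkb173 : allR L0chkf 8 173 = true := by decide +kernel
theorem L0chkb174 : allR L0chkf 8 174 = true := by decide +kernel
theorem L0chkb175 : allR L0chkf 8 175 = true := by decide +kernel
theorem L0chkb176 : allR L0chkf 8 176 = true := by decide +kernel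
theorem L0chkb177 : allR L0chkf 8 177 = true := by decide +kernel
theorem L0chkb178 : allR L0chkf 8 178 = true := by decide +kernel
theorem L0chkb179 : allR L0chkf 8 179 = true := by decide +kernel

end Cfsg.Agent.H3.F42
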