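import Cfsg.Agent.H3.Mu.F42.P2D

/-! Checks for the Sylow `2`-subgroup. -/

set_option autoImplicit false
set_option maxRecDepth 100000

open Cfsg.Agent.L0

namespace Cfsg.Agent.H3.F42.P2

theorem split10 {α : Type} {l : List α} {p : α → Bool} (k m : ℕ) (e : k + 10 = m)
    (h1 : allL ((l.drop k).take 10) p = true) (h2 : allL (l.drop m) p = true) : allL (l.drop k) p = true := by
  subst e
  rw [allL_iff] at *
  intro a ha
  rw [← List.take_append_drop 10 (l.drop k), List.mem_append, List.drop_drop] at ha
  exact ha.elim (h1 a) (h2 a)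

theorem of_drop0 {α : Type} {l : List α} {p : α → Bool} (h : allL (l.drop 0) p = true) : allL l p = true := by
  rwa [List.drop_zero] at h

end Cfsg.Agent.H3.F42.P2
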