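import Cfsg.Agent.H3.Mu.F42.P2D

/-! Checks for the Sylow `2`-subgroup. -/

set_option autoImplicit false
set_option maxRecDepth 100000

open Cfsg.Agent.L0

namespace Cfsg.Agent.H3.F42.P2

theorem con10x0 : allL ((cc10.drop 0).take 10) (P.conOk fu) = true := by decide +kernel

end Cfsg.Agent.H3.F42.P2
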