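import Cfsg.Agent.H3.Mu.F42.P2c14x0
import Cfsg.Agent.H3.Mu.F42.P2S


/-! Checks for the Sylow `2`-subgroup. -/

set_option autoImplicit false
set_option maxRecDepth 100000

open Cfsg.Agent.L0

namespace Cfsg.Agent.H3.F42.P2

theorem con14 : allL cc14 (P.conOk fu) = true :=
  of_drop0 (split10 0 10 rfl con14x0 (by decide +kernel : allL (cc14.drop 10) (P.conOk fu) = true))

end Cfsg.Agent.H3.F42.P2
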