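import Cfsg.Agent.H3.Mu.F42.P2c16x0
import Cfsg.Agent.H3.Mu.F42.P2c16x1
import Cfsg.Agent.H3.Mu.F42.P2c16x2
import Cfsg.Agent.H3.Mu.F42.P2c16x3
import Cfsg.Agent.H3.Mu.F42.P2S


/-! Checks for the Sylow `2`-subgroup. -/

set_option autoImplicit false
set_option maxRecDepth 100000

open Cfsg.Agent.L0

namespace Cfsg.Agent.H3.F42.P2

theorem con16 : allL cc16 (P.conOk fu) = true :=
  of_drop0 (split10 0 10 rfl con16x0 (split10 10 20 rfl con16x1 (split10 20 30 rfl con16x2 (split10 30 40 rfl con16x3 (by decide +kernel : allL (cc16.drop 40) (P.conOk fu) = true)))))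

end Cfsg.Agent.H3.F42.P2
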