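import Cfsg.Agent.H3.Mu.F42.P2D

/-! Checks for the Sylow `2`-subgroup. -/

set_option autoImplicit false
set_option maxRecDepth 100000

open Cfsg.Agent.L0

namespace Cfsg.Agent.H3.F42.P2

theorem fus0 : P.fusOk (dT T W) B fu 0 = true := by decide +kernel
theorem fus1 : P.fusOk (dT T W) B fu 1 = true := by decide +kernel
theorem fus2 : P.fusOk (dT T W) B fu 2 = true := by decide +kernel
theorem fus3 : P.fusOk (dT T W) B fu 3 = true := by decide +kernel
theorem fus4 : P.fusOk (dT T W) B fu 4 = true := by decide +kernel
theorem fus5 : P.fusOk (dT T W) B fu 5 = true := by decide +kernel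
theorem fus6 : P.fusOk (dT T W) B fu 6 = true := by decide +kernel
theorem fus7 : P.fusOk (dT T W) B fu 7 = true := by decide +kernel
theorem fus8 : P.fusOk (dT T W) B fu 8 = true := by decide +kernel
theorem fus9 : P.fusOk (dT T W) B fu 9 = true := by decide +kernel
theorem fus10 : P.fusOk (dT T W) B fu 10 = true := by decide +kernel
theorem fus11 : P.fusOk (dT T W) B fu 11 = true := by decide +kernel
theorem fus12 : P.fusOk (dT T W) B fu 12 = true := by decide +kernel
theorem fus13 : P.fusOk (dT T W) B fu 13 = true := by decide +kernel
theorem fus14 : P.fusOk (dT T W) B fu 14 = true := by decide +kernel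
theorem fus15 : P.fusOk (dT T W) B fu 15 = true := by decide +kernel
theorem fus16 : P.fusOk (dT T W) B fu 16 = true := by decide +kernel
theorem fus17 : P.fusOk (dT T W) B fu 17 = true := by decide +kernel
theorem fus18 : P.fusOk (dT T W) B fu 18 = true := by decide +kernel
theorem fus19 : P.fusOk (dT T W) B fu 19 = true := by decide +kernel
theorem fus20 : P.fusOk (dT T W) B fu 20 = true := by decide +kernel
theorem fus21 : P.fusOk (dT T W) B fu 21 = true := by decide +kernel
theorem fus22 : P.fusOk (dT T W) B fu 22 = true := by decide +kernel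
theorem fus23 : P.fusOk (dT T W) B fu 23 = true := by decide +kernel
theorem fus24 : P.fusOk (dT T W) B fu 24 = true := by decide +kernel
theorem fus25 : P.fusOk (dT T W) B fu 25 = true := by decide +kernel
theorem fus26 : P.fusOk (dT T W) B fu 26 = true := by decide +kernel
theorem fus27 : P.fusOk (dT T W) B fu 27 = true := by decide +kernel
theorem fus28 : P.fusOk (dT T W) B fu 28 = true := by decide +kernel
theorem fus29 : P.fusOk (dT T W) B fu 29 = true := by decide +kernel

end Cfsg.Agent.H3.F42.P2
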