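import Cfsg.Agent.H3.Mu.F42.P2D

/-! Checks for the Sylow `2`-subgroup. -/

set_option autoImplicit false
set_option maxRecDepth 100000

open Cfsg.Agent.L0

namespace Cfsg.Agent.H3.F42.P2

theorem fus30 : P.fusOk (dT T W) B fu 30 = true := by decide +kernel
theorem fus31 : P.fusOk (dT T W) B fu 31 = true := by decide +kernel
theorem fus32 : P.fusOk (dT T W) B fu 32 = true := by decide +kernel
theorem fus33 : P.fusOk (dT T W) B fu 33 = true := by decide +kernel
theorem fus34 : P.fusOk (dT T W) B fu 34 = true := by decide +kernel
theorem fus35 : P.fusOk (dT T W) B fu 35 = true := by decide +kernel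
theorem fus36 : P.fusOk (dT T W) B fu 36 = true := by decide +kernel
theorem fus37 : P.fusOk (dT T W) B fu 37 = true := by decide +kernel
theorem fus38 : P.fusOk (dT T W) B fu 38 = true := by decide +kernel
theorem fus39 : P.fusOk (dT T W) B fu 39 = true := by decide +kernel
theorem fus40 : P.fusOk (dT T W) B fu 40 = true := by decide +kernel
theorem fus41 : P.fusOk (dT T W) B fu 41 = true := by decide +kernel
theorem fus42 : P.fusOk (dT T W) B fu 42 = true := by decide +kernel
theorem fus43 : P.fusOk (dT T W) B fu 43 = true := by decide +kernel
theorem fus44 : P.fusOk (dT T W) B fu 44 = true := by decide +kernel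
theorem fus45 : P.fusOk (dT T W) B fu 45 = true := by decide +kernel
theorem fus46 : P.fusOk (dT T W) B fu 46 = true := by decide +kernel
theorem fus47 : P.fusOk (dT T W) B fu 47 = true := by decide +kernel
theorem fus48 : P.fusOk (dT T W) B fu 48 = true := by decide +kernel
theorem fus49 : P.fusOk (dT T W) B fu 49 = true := by decide +kernel
theorem fus50 : P.fusOk (dT T W) B fu 50 = true := by decide +kernel
theorem fus51 : P.fusOk (dT T W) B fu 51 = true := by decide +kernel
theorem fus52 : P.fusOk (dT T W) B fu 52 = true := by decide +kernel
theorem fus53 : P.fusOk (dT T W) B fu 53 = true := by decide +kernel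
theorem fus54 : P.fusOk (dT T W) B fu 54 = true := by decide +kernel
theorem fus55 : P.fusOk (dT T W) B fu 55 = true := by decide +kernel
theorem fus56 : P.fusOk (dT T W) B fu 56 = true := by decide +kernel
theorem fus57 : P.fusOk (dT T W) B fu 57 = true := by decide +kernel
theorem fus58 : P.fusOk (dT T W) B fu 58 = true := by decide +kernel
theorem fus59 : P.fusOk (dT T W) B fu 59 = true := by decide +kernel

end Cfsg.Agent.H3.F42.P2
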