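import Cfsg.Agent.H3.Mu.F42.P2D

/-! Checks for the Sylow `2`-subgroup. -/

set_option autoImplicit false
set_option maxRecDepth 100000

open Cfsg.Agent.L0

namespace Cfsg.Agent.H3.F42.P2

theorem fus60 : P.fusOk (dT T W) B fu 60 = true := by decide +kernel
theorem fus61 : P.fusOk (dT T W) B fu 61 = true := by decide +kernel
theorem fus62 : P.fusOk (dT T W) B fu 62 = true := by decide +kernel
theorem fus63 : P.fusOk (dT T W) B fu 63 = true := by decide +kernel
theorem fus64 : P.fusOk (dT T W) B fu 64 = true := by decide +kernel
theorem fus65 : P.fusOk (dT T W) B fu 65 = true := by decide +kernel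
theorem fus66 : P.fusOk (dT T W) B fu 66 = true := by decide +kernel
theorem fus67 : P.fusOk (dT T W) B fu 67 = true := by decide +kernel
theorem fus68 : P.fusOk (dT T W) B fu 68 = true := by decide +kernel
theorem fus69 : P.fusOk (dT T W) B fu 69 = true := by decide +kernel
theorem fus70 : P.fusOk (dT T W) B fu 70 = true := by decide +kernel
theorem fus71 : P.fusOk (dT T W) B fu 71 = true := by decide +kernel
theorem fus72 : P.fusOk (dT T W) B fu 72 = true := by decide +kernel
theorem fus73 : P.fusOk (dT T W) B fu 73 = true := by decide +kernel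
theorem fus74 : P.fusOk (dT T W) B fu 74 = true := by decide +kernel
theorem fus75 : P.fusOk (dT T W) B fu 75 = true := by decide +kernel
theorem fus76 : P.fusOk (dT T W) B fu 76 = true := by decide +kernel
theorem fus77 : P.fusOk (dT T W) B fu 77 = true := by decide +kernel
theorem fus78 : P.fusOk (dT T W) B fu 78 = true := by decide +kernel
theorem fus79 : P.fusOk (dT T W) B fu 79 = true := by decide +kernel
theorem fus80 : P.fusOk (dT T W) B fu 80 = true := by decide +kernel
theorem fus81 : P.fusOk (dT T W) B fu 81 = true := by decide +kernel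
theorem fus82 : P.fusOk (dT T W) B fu 82 = true := by decide +kernel
theorem fus83 : P.fusOk (dT T W) B fu 83 = true := by decide +kernel
theorem fus84 : P.fusOk (dT T W) B fu 84 = true := by decide +kernel

end Cfsg.Agent.H3.F42.P2
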