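import Cfsg.Agent.H3.Mu.F42.P2D

/-! Checks for the Sylow `2`-subgroup. -/

set_option autoImplicit false
set_option maxRecDepth 100000

open Cfsg.Agent.L0

namespace Cfsg.Agent.H3.F42.P2

theorem fin0 : P.finRow lam (bs :: CV) MU 0 = true := by decide +kernel
theorem fin1 : P.finRow lam (bs :: CV) MU 1 = true := by decide +kernel
theorem fin2 : P.finRow lam (bs :: CV) MU 2 = true := by decide +kernel
theorem fin3 : P.finRow lam (bs :: CV) MU 3 = true := by decide +kernel
theorem fin4 : P.finRow lam (bs :: CV) MU 4 = true := by decide +kernel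
theorem fin5 : P.finRow lam (bs :: CV) MU 5 = true := by decide +kernel
theorem fin6 : P.finRow lam (bs :: CV) MU 6 = true := by decide +kernel
theorem fin7 : P.finRow lam (bs :: CV) MU 7 = true := by decide +kernel
theorem fin8 : P.finRow lam (bs :: CV) MU 8 = true := by decide +kernel
theorem fin9 : P.finRow lam (bs :: CV) MU 9 = true := by decide +kernel
theorem fin10 : P.finRow lam (bs :: CV) MU 10 = true := by decide +kernel
theorem fin11 : P.finRow lam (bs :: CV) MU 11 = true := by decide +kernel

end Cfsg.Agent.H3.F42.P2
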