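import Cfsg.Agent.H3.Mu.F42.P2D

/-! Checks for the Sylow `2`-subgroup. -/

set_option autoImplicit false
set_option maxRecDepth 100000

open Cfsg.Agent.L0

namespace Cfsg.Agent.H3.F42.P2

theorem fin12 : P.finRow lam (bs :: CV) MU 12 = true := by decide +kernel
theorem fin13 : P.finRow lam (bs :: CV) MU 13 = true := by decide +kernel
theorem fin14 : P.finRow lam (bs :: CV) MU 14 = true := by decide +kernel
theorem fin15 : P.finRow lam (bs :: CV) MU 15 = true := by decide +kernel
theorem fin16 : P.finRow lam (bs :: CV) MU 16 = true := by decide +kernel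
theorem fin17 : P.finRow lam (bs :: CV) MU 17 = true := by decide +kernel
theorem fin18 : P.finRow lam (bs :: CV) MU 18 = true := by decide +kernel
theorem fin19 : P.finRow lam (bs :: CV) MU 19 = true := by decide +kernel
theorem fin20 : P.finRow lam (bs :: CV) MU 20 = true := by decide +kernel
theorem fin21 : P.finRow lam (bs :: CV) MU 21 = true := by decide +kernel
theorem fin22 : P.finRow lam (bs :: CV) MU 22 = true := by decide +kernel
theorem fin23 : P.finRow lam (bs :: CV) MU 23 = true := by decide +kernel

end Cfsg.Agent.H3.F42.P2
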