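import Cfsg.Agent.H3.Mu.F42.P2D

/-! Checks for the Sylow `2`-subgroup. -/

set_option autoImplicit false
set_option maxRecDepth 100000

open Cfsg.Agent.L0

namespace Cfsg.Agent.H3.F42.P2

theorem rel0 : P.relRow (dT T W) B 0 = true := by decide +kernel
theorem rel1 : P.relRow (dT T W) B 1 = true := by decide +kernel
theorem rel2 : P.relRow (dT T W) B 2 = true := by decide +kernel
theorem rel3 : P.relRow (dT T W) B 3 = true := by decide +kernel
theorem rel4 : P.relRow (dT T W) B 4 = true := by decide +kernel
theorem rel5 : P.relRow (dT T W) B 5 = true := by decide +kernel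
theorem rel6 : P.relRow (dT T W) B 6 = true := by decide +kernel
theorem rel7 : P.relRow (dT T W) B 7 = true := by decide +kernel
theorem rel8 : P.relRow (dT T W) B 8 = true := by decide +kernel
theorem rel9 : P.relRow (dT T W) B 9 = true := by decide +kernel
theorem rel10 : P.relRow (dT T W) B 10 = true := by decide +kernel
theorem rel11 : P.relRow (dT T W) B 11 = true := by decide +kernel

end Cfsg.Agent.H3.F42.P2
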