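import Cfsg.Agent.H3.Mu.F42.P2D

/-! Checks for the Sylow `2`-subgroup. -/

set_option autoImplicit false
set_option maxRecDepth 100000

open Cfsg.Agent.L0

namespace Cfsg.Agent.H3.F42.P2

theorem rel12 : P.relRow (dT T W) B 12 = true := by decide +kernel
theorem rel13 : P.relRow (dT T W) B 13 = true := by decide +kernel
theorem rel14 : P.relRow (dT T W) B 14 = true := by decide +kernel
theorem rel15 : P.relRow (dT T W) B 15 = true := by decide +kernel
theorem rel16 : P.relRow (dT T W) B 16 = true := by decide +kernel
theorem rel17 : P.relRow (dT T W) B 17 = true := by decide +kernel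
theorem rel18 : P.relRow (dT T W) B 18 = true := by decide +kernel
theorem rel19 : P.relRow (dT T W) B 19 = true := by decide +kernel
theorem rel20 : P.relRow (dT T W) B 20 = true := by decide +kernel
theorem rel21 : P.relRow (dT T W) B 21 = true := by decide +kernel
theorem rel22 : P.relRow (dT T W) B 22 = true := by decide +kernel
theorem rel23 : P.relRow (dT T W) B 23 = true := by decide +kernel

end Cfsg.Agent.H3.F42.P2
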