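import Cfsg.Agent.H3.Core2
import Cfsg.Agent.H3.Mu.F42.Core
import Cfsg.Agent.H3.Mu.F42.L0
import Cfsg.Agent.H3.Mu.F42.P2
import Cfsg.Agent.H3.Mu.F42.P3
import Cfsg.Agent.H3.Mu.F42.P5
import Cfsg.Agent.H3.Mu.F42.P7

/-! The Schur multiplier. -/

set_option autoImplicit false
set_option maxRecDepth 100000

open Cfsg.Agent.L0

namespace Cfsg.Agent.H3.F42


theorem schur {G : Type*} [Group G] (hm : Model G 69615 8 T Bf) :
    Finite G ∧ Nat.card G = 3311126603366400 ∧ HasSchurMultiplier G (Multiplicative (ZMod 2)) := by
  obtain ⟨A, x, h⟩ := core' hm
  haveI := h.fin
  have h2 := P2.pm h.base h.tab h.card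
  have h3 := P3.pm h.base h.tab h.card
  have hr := pmult_rest h.card [5, 7] (List.forall_mem_cons.mpr ⟨P5.pm h.base h.tab h.card, (List.forall_mem_cons.mpr ⟨P7.pm h.base h.tab h.card, (by simp)⟩)⟩) (by decide +kernel) (by decide +kernel)
  exact ⟨h.fin, h.card, hasSchur_of (lower_one' h.pres L0rep
    [(-47203930028482303536134, 5), (-26825244113856393208848, 11), (-171956693037540982108, 15), (-343913386075081964216, 21), (17969474422423828283984, 22), (-343913386075081964216, 23), (1146537207304, 24), (37692221926225868969906, 25), (-171956693037540982108, 26), (-178826399759597991922, 27), (-2, 28), (44794718536280221492832, 29), (-343913386075081964216, 30), (-343913386075081964216, 31), (27169157499934657787856, 32), (-17711539382865129849728, 33), (19410764854219793764942, 34), (-171903162881611832672, 35), (-20462846471462602948664, 36), (343913386075081964216, 37), (-27169157499934657787856, 38), (687853537227332849452, 39), (8855769691432564924864, 41), (-171956693037540982108, 43), (343913386075081964216, 46), (-8769791344912998780112, 47), (-343913386075081964216, 55), (4040982286381417425840, 59), (-171956693037540982108, 61), (171956693037540982108, 62), (-171956693037540982108,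 63), (1117718504743220730004, 64), (945761811705679747896, 68), (-945761811705679747896, 71), (171956693037540982108, 73), (171956693037540982108, 75), (-343913386075081964216, 81), (429891732593056801572, 82), (-26765077168921020, 89), (-171956693037540982108, 91), (171956693037540982108, 102), (-171956693037540982108, 114), (171956693037540982108, 117), (257935039555515819464, 119), (171956693039132289504, 122), (-171956693039132289504, 123), (-171956693037540982108, 124), (171956693037540982108, 126), (10170729508781645537, 129), (171956693039132289504, 141), (-254500186198465583047, 145), (62451845931828682, 149), (-17843384779280680, 150), (-4460846194820170, 151), (1149719764978, 154), (1, 156), (1, 157), (-9806616867892635495528, 160), (-37430852032732873484209, 161), (-43011477490757173226, 162), (-10170729508781645537, 163), (795653698, 164), (-265255978, 167), (-47203930028482303536134, 170), (47188673934225496140339, 171), (10170729508781645537, 172), (-2299439529956, 173), (-1, 175), (-62946130790099428936850, 176), (-31742470388178793840788, 177), (94673407535867347210525, 178), (15193642410875624231, 179), (-57118, 180), (28559, 182)]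
    (by decide +kernel) (by decide +kernel))
    (upper_cyclic (k2 := 1) (k3 := 0) rfl h2 (h3.mono (by norm_num)) hr)⟩

end Cfsg.Agent.H3.F42
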