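import Cfsg.Agent.H3.Mu.F42.TabT

/-! Generated permutation table, new letters and stabiliser chain. -/

set_option autoImplicit false
set_option maxRecDepth 100000

open Cfsg.Agent.L0

namespace Cfsg.Agent.H3.F42

theorem dchkb25 : allR dchkf 11 25 = true := by decide +kernel
theorem dchkb26 : allR dchkf 11 26 = true := by decide +kernel
theorem dchkb27 : allR dchkf 11 27 = true := by decide +kernel
theorem dchkb28 : allR dchkf 11 28 = true := by decide +kernel
theorem dchkb29 : allR dchkf 11 29 = true := by decide +kernel
theorem dchkb30 : allR dchkf 11 30 = true := by decide +kernel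
theorem dchkb31 : allR dchkf 11 31 = true := by decide +kernel
theorem dchkb32 : allR dchkf 11 32 = true := by decide +kernel
theorem dchkb33 : allR dchkf 11 33 = true := by decide +kernel
theorem lev10b0 : allR lev10f 6 0 = true := by decide +kernel
theorem lev9b0 : allR lev9f 2 0 = true := by decide +kernel
theorem lev8b0 : allR lev8f 1 0 = true := by decide +kernel
theorem lev7b0 : allR lev7f 2 0 = true := by decide +kernel
theorem lev6b0 : allR lev6f 4 0 = true := by decide +kernel
theorem lev5b0 : allR lev5f 1 0 = true := by decide +kernel
theorem lev4b0 : allR lev4f 2 0 = true := by decide +kernel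
theorem lev3b0 : allR lev3f 5 0 = true := by decide +kernel
theorem lev2b0 : allR lev2f 5 0 = true := by decide +kernel
theorem lev1b0 : allR lev1f 9 0 = true := by decide +kernel
theorem lev0b0 : allR lev0f 16 0 = true := by decide +kernel
theorem lev0b1 : allR lev0f 16 1 = true := by decide +kernel

end Cfsg.Agent.H3.F42
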