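import Cfsg.Agent.H3.Mu.F42.TabC0
import Cfsg.Agent.H3.Mu.F42.TabC1

/-! Generated permutation table, new letters and stabiliser chain. -/

set_option autoImplicit false
set_option maxRecDepth 100000

open Cfsg.Agent.L0

namespace Cfsg.Agent.H3.F42

theorem dchk : ∀ c < 69615, dchkf c = true := fun c hc =>
  allR_glue (d := 11) (n := 34) (forall_lt_succ' (forall_lt_succ' (forall_lt_succ' (forall_lt_succ' (forall_lt_succ' (forall_lt_succ' (forall_lt_succ' (forall_lt_succ' (forall_lt_succ' (forall_lt_succ' (forall_lt_succ' (forall_lt_succ' (forall_lt_succ' (forall_lt_succ' (forall_lt_succ' (forall_lt_succ' (forall_lt_succ' (forall_lt_succ' (forall_lt_succ' (forall_lt_succ' (forall_lt_succ' (forall_lt_succ' (forall_lt_succ' (forall_lt_succ' (forall_lt_succ' (forall_lt_succ' (forall_lt_succ' (forall_lt_succ' (forall_lt_succ' (forall_lt_succ' (forall_lt_succ' (forall_lt_succ' (forall_lt_succ' (forall_lt_succ' forall_lt_zero' dchkb0) dchkb1) dchkb2) dchkb3) dchkb4) dchkb5) dchkb6) dchkb7) dchkb8)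 dchkb9) dchkb10) dchkb11) dchkb12) dchkb13) dchkb14) dchkb15) dchkb16) dchkb17) dchkb18) dchkb19) dchkb20) dchkb21) dchkb22) dchkb23) dchkb24) dchkb25) dchkb26) dchkb27) dchkb28) dchkb29) dchkb30) dchkb31) dchkb32) dchkb33) c (lt_of_lt_of_le hc (by norm_num))

theorem lev10 : ∀ c < 64, lev10f c = true := fun c hc =>
  allR_glue (d := 6) (n := 1) (forall_lt_succ' forall_lt_zero' lev10b0) c (lt_of_lt_of_le hc (by norm_num))

theorem lev9 : ∀ c < 4, lev9f c = true := fun c hc =>
  allR_glue (d := 2) (n := 1) (forall_lt_succ' forall_lt_zero' lev9b0) c (lt_of_lt_of_le hc (by norm_num))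

theorem lev8 : ∀ c < 2, lev8f c = true := fun c hc =>
  allR_glue (d := 1) (n := 1) (forall_lt_succ' forall_lt_zero' lev8b0) c (lt_of_lt_of_le hc (by norm_num))

theorem lev7 : ∀ c < 4, lev7f c = true := fun c hc =>
  allR_glue (d := 2) (n := 1) (forall_lt_succ' forall_lt_zero' lev7b0) c (lt_of_lt_of_le hc (by norm_num))

theorem lev6 : ∀ c < 16, lev6f c = true := fun c hc =>
  allR_glue (d := 4) (n := 1) (forall_lt_succ' forall_lt_zero' lev6b0) c (lt_of_lt_of_le hc (by norm_num))

theorem lev5 : ∀ c < 2, lev5f c = true := fun c hc =>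
  allR_glue (d := 1) (n := 1) (forall_lt_succ' forall_lt_zero' lev5b0) c (lt_of_lt_of_le hc (by norm_num))

theorem lev4 : ∀ c < 4, lev4f c = true := fun c hc =>
  allR_glue (d := 2) (n := 1) (forall_lt_succ' forall_lt_zero' lev4b0) c (lt_of_lt_of_le hc (by norm_num))

theorem lev3 : ∀ c < 24, lev3f c = true := fun c hc =>
  allR_glue (d := 5) (n := 1) (forall_lt_succ' forall_lt_zero' lev3b0) c (lt_of_lt_of_le hc (by norm_num))

theorem lev2 : ∀ c < 28, lev2f c = true := fun c hc =>
  allR_glue (d := 5) (n := 1) (forall_lt_succ' forall_lt_zero' lev2b0) c (lt_of_lt_of_le hc (by norm_num))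

theorem lev1 : ∀ c < 270, lev1f c = true := fun c hc =>
  allR_glue (d := 9) (n := 1) (forall_lt_succ' forall_lt_zero' lev1b0) c (lt_of_lt_of_le hc (by norm_num))

theorem lev0 : ∀ c < 69615, lev0f c = true := fun c hc =>
  allR_glue (d := 16) (n := 2) (forall_lt_succ' (forall_lt_succ' forall_lt_zero' lev0b0) lev0b1) c (lt_of_lt_of_le hc (by norm_num))

theorem ext {G : Type*} [Group G] {A : RAct G 69615} {g : ℕ → G} (h : A.Tab g 8 T) :
    ∃ g' : ℕ → G, (∀ i < 8, g' i = g i) ∧ A.Tab g' 24 T ∧
      genL g' (List.range 24) = genL g (List.range 8) :=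
  tab_extend' h (D := D) (by decide +kernel) (by decide +kernel) le_rfl dchk

/-- the levels -/
def L : List (ℕ × ℕ × ℕ) := [(nat_lit 364, nat_lit 0, nat_lit 69615), (nat_lit 268, nat_lit 0, nat_lit 270), (nat_lit 0, nat_lit 0, nat_lit 28), (nat_lit 28, nat_lit 28, nat_lit 24), (nat_lit 270, nat_lit 270, nat_lit 4), (nat_lit 52, nat_lit 52, nat_lit 2), (nat_lit 274, nat_lit 274, nat_lit 16), (nat_lit 290, nat_lit 290, nat_lit 4), (nat_lit 294, nat_lit 294, nat_lit 2), (nat_lit 296, nat_lit 296, nat_lit 4), (nat_lit 300, nat_lit 300, nat_lit 64)]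

theorem chain {G : Type*} [Group G] {A : RAct G 69615} {x : ℕ → G} (h : A.Tab x 24 T) :
    A.Chain ⊤ [] (ivl L) :=
  chain_cons h (by decide +kernel) lev0
    (chain_cons h (by decide +kernel) lev1
    (chain_cons h (by decide +kernel) lev2
    (chain_cons h (by decide +kernel) lev3
    (chain_cons h (by decide +kernel) lev4
    (chain_cons h (by decide +kernel) lev5
    (chain_cons h (by decide +kernel) lev6
    (chain_cons h (by decide +kernel) lev7
    (chain_cons h (by decide +kernel) lev8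
    (chain_cons h (by decide +kernel) lev9
    (chain_cons h (by decide +kernel) lev10
    (chain_nil)))))))))))

end Cfsg.Agent.H3.F42
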