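import Cfsg.Agent.H3.Mu.F42.TabT

/-! Generated permutation table, new letters and stabiliser chain. -/

set_option autoImplicit false
set_option maxRecDepth 100000

open Cfsg.Agent.L0

namespace Cfsg.Agent.H3.F42

theorem dchkb0 : allR dchkf 11 0 = true := by decide +kernel
theorem dchkb1 : allR dchkf 11 1 = true := by decide +kernel
theorem dchkb2 : allR dchkf 11 2 = true := by decide +kernel
theorem dchkb3 : allR dchkf 11 3 = true := by decide +kernel
theorem dchkb4 : allR dchkf 11 4 = true := by decide +kernel
theorem dchkb5 : allR dchkf 11 5 = true := by decide +kernel
theorem dchkb6 : allR dchkf 11 6 = true := by decide +kernel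
theorem dchkb7 : allR dchkf 11 7 = true := by decide +kernel
theorem dchkb8 : allR dchkf 11 8 = true := by decide +kernel
theorem dchkb9 : allR dchkf 11 9 = true := by decide +kernel
theorem dchkb10 : allR dchkf 11 10 = true := by decide +kernel
theorem dchkb11 : allR dchkf 11 11 = true := by decide +kernel
theorem dchkb12 : allR dchkf 11 12 = true := by decide +kernel
theorem dchkb13 : allR dchkf 11 13 = true := by decide +kernel
theorem dchkb14 : allR dchkf 11 14 = true := by decide +kernel
theorem dchkb15 : allR dchkf 11 15 = true := by decide +kernel
theorem dchkb16 : allR dchkf 11 16 = true := by decide +kernel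
theorem dchkb17 : allR dchkf 11 17 = true := by decide +kernel
theorem dchkb18 : allR dchkf 11 18 = true := by decide +kernel
theorem dchkb19 : allR dchkf 11 19 = true := by decide +kernel
theorem dchkb20 : allR dchkf 11 20 = true := by decide +kernel
theorem dchkb21 : allR dchkf 11 21 = true := by decide +kernel
theorem dchkb22 : allR dchkf 11 22 = true := by decide +kernel
theorem dchkb23 : allR dchkf 11 23 = true := by decide +kernel
theorem dchkb24 : allR dchkf 11 24 = true := by decide +kernel

end Cfsg.Agent.H3.F42
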