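import Cfsg.Agent.H3.Mu.F42.VecT

/-! Generated vectors and matrices. -/

set_option autoImplicit false
set_option maxRecDepth 100000

open Cfsg.Agent.L0

namespace Cfsg.Agent.H3.F42

theorem vchkb0 : allR vchkf 10 0 = true := by decide +kernel
theorem vchkb1 : allR vchkf 10 1 = true := by decide +kernel
theorem vchkb2 : allR vchkf 10 2 = true := by decide +kernel
theorem vchkb3 : allR vchkf 10 3 = true := by decide +kernel
theorem vchkb4 : allR vchkf 10 4 = true := by decide +kernel
theorem vchkb5 : allR vchkf 10 5 = true := by decide +kernel
theorem vchkb6 : allR vchkf 10 6 = true := by decide +kernel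
theorem vchkb7 : allR vchkf 10 7 = true := by decide +kernel
theorem vchkb8 : allR vchkf 10 8 = true := by decide +kernel
theorem vchkb9 : allR vchkf 10 9 = true := by decide +kernel
theorem vchkb10 : allR vchkf 10 10 = true := by decide +kernel
theorem vchkb11 : allR vchkf 10 11 = true := by decide +kernel
theorem vchkb12 : allR vchkf 10 12 = true := by decide +kernel
theorem vchkb13 : allR vchkf 10 13 = true := by decide +kernel
theorem vchkb14 : allR vchkf 10 14 = true := by decide +kernel
theorem vchkb15 : allR vchkf 10 15 = true := by decide +kernel
theorem vchkb16 : allR vchkf 10 16 = true := by decide +kernel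
theorem vchkb17 : allR vchkf 10 17 = true := by decide +kernel
theorem vchkb18 : allR vchkf 10 18 = true := by decide +kernel
theorem vchkb19 : allR vchkf 10 19 = true := by decide +kernel
theorem vchkb20 : allR vchkf 10 20 = true := by decide +kernel

end Cfsg.Agent.H3.F42
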