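import Cfsg.Agent.H3.Mu.F42.VecT

/-! Generated vectors and matrices. -/

set_option autoImplicit false
set_option maxRecDepth 100000

open Cfsg.Agent.L0

namespace Cfsg.Agent.H3.F42

theorem vchkb21 : allR vchkf 10 21 = true := by decide +kernel
theorem vchkb22 : allR vchkf 10 22 = true := by decide +kernel
theorem vchkb23 : allR vchkf 10 23 = true := by decide +kernel
theorem vchkb24 : allR vchkf 10 24 = true := by decide +kernel
theorem vchkb25 : allR vchkf 10 25 = true := by decide +kernel
theorem vchkb26 : allR vchkf 10 26 = true := by decide +kernel
theorem vchkb27 : allR vchkf 10 27 = true := by decide +kernel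
theorem vchkb28 : allR vchkf 10 28 = true := by decide +kernel
theorem vchkb29 : allR vchkf 10 29 = true := by decide +kernel
theorem vchkb30 : allR vchkf 10 30 = true := by decide +kernel
theorem vchkb31 : allR vchkf 10 31 = true := by decide +kernel
theorem vchkb32 : allR vchkf 10 32 = true := by decide +kernel
theorem vchkb33 : allR vchkf 10 33 = true := by decide +kernel
theorem vchkb34 : allR vchkf 10 34 = true := by decide +kernel
theorem vchkb35 : allR vchkf 10 35 = true := by decide +kernel
theorem vchkb36 : allR vchkf 10 36 = true := by decide +kernel
theorem vchkb37 : allR vchkf 10 37 = true := by decide +kernel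
theorem vchkb38 : allR vchkf 10 38 = true := by decide +kernel
theorem vchkb39 : allR vchkf 10 39 = true := by decide +kernel
theorem vchkb40 : allR vchkf 10 40 = true := by decide +kernel
theorem vchkb41 : allR vchkf 10 41 = true := by decide +kernel

end Cfsg.Agent.H3.F42
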