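import Cfsg.Agent.H3.Mu.F42.VecT

/-! Generated vectors and matrices. -/

set_option autoImplicit false
set_option maxRecDepth 100000

open Cfsg.Agent.L0

namespace Cfsg.Agent.H3.F42

theorem vchkb42 : allR vchkf 10 42 = true := by decide +kernel
theorem vchkb43 : allR vchkf 10 43 = true := by decide +kernel
theorem vchkb44 : allR vchkf 10 44 = true := by decide +kernel
theorem vchkb45 : allR vchkf 10 45 = true := by decide +kernel
theorem vchkb46 : allR vchkf 10 46 = true := by decide +kernel
theorem vchkb47 : allR vchkf 10 47 = true := by decide +kernel
theorem vchkb48 : allR vchkf 10 48 = true := by decide +kernel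
theorem vchkb49 : allR vchkf 10 49 = true := by decide +kernel
theorem vchkb50 : allR vchkf 10 50 = true := by decide +kernel
theorem vchkb51 : allR vchkf 10 51 = true := by decide +kernel
theorem vchkb52 : allR vchkf 10 52 = true := by decide +kernel
theorem vchkb53 : allR vchkf 10 53 = true := by decide +kernel
theorem vchkb54 : allR vchkf 10 54 = true := by decide +kernel
theorem vchkb55 : allR vchkf 10 55 = true := by decide +kernel
theorem vchkb56 : allR vchkf 10 56 = true := by decide +kernel
theorem vchkb57 : allR vchkf 10 57 = true := by decide +kernel
theorem vchkb58 : allR vchkf 10 58 = true := by decide +kernel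
theorem vchkb59 : allR vchkf 10 59 = true := by decide +kernel
theorem vchkb60 : allR vchkf 10 60 = true := by decide +kernel
theorem vchkb61 : allR vchkf 10 61 = true := by decide +kernel
theorem vchkb62 : allR vchkf 10 62 = true := by decide +kernel

end Cfsg.Agent.H3.F42
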