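import Cfsg.Agent.H3.Mu.F42.VecT

/-! Generated vectors and matrices. -/

set_option autoImplicit false
set_option maxRecDepth 100000

open Cfsg.Agent.L0

namespace Cfsg.Agent.H3.F42

theorem vchkb63 : allR vchkf 10 63 = true := by decide +kernel
theorem vchkb64 : allR vchkf 10 64 = true := by decide +kernel
theorem vchkb65 : allR vchkf 10 65 = true := by decide +kernel
theorem vchkb66 : allR vchkf 10 66 = true := by decide +kernel
theorem vchkb67 : allR vchkf 10 67 = true := by decide +kernel
theorem schkb0 : allR schkf 15 0 = true := by decide +kernel
theorem schkb1 : allR schkf 15 1 = true := by decide +kernel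
theorem schkb2 : allR schkf 15 2 = true := by decide +kernel

end Cfsg.Agent.H3.F42
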