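import Cfsg.Prelude.Def_ChevF4
import Cfsg.Agent.H3.Mu.F42.VecC0
import Cfsg.Agent.H3.Mu.F42.VecC1
import Cfsg.Agent.H3.Mu.F42.VecC2
import Cfsg.Agent.H3.Mu.F42.VecC3

/-! Generated vectors and matrices. -/

set_option autoImplicit false
set_option maxRecDepth 100000

open Cfsg.Agent.L0

namespace Cfsg.Agent.H3.F42

theorem vchka50 : ∀ j < 50, allR vchkf 10 j = true := (forall_lt_succ' (forall_lt_succ' (forall_lt_succ' (forall_lt_succ' (forall_lt_succ' (forall_lt_succ' (forall_lt_succ' (forall_lt_succ' (forall_lt_succ' (forall_lt_succ' (forall_lt_succ' (forall_lt_succ' (forall_lt_succ' (forall_lt_succ' (forall_lt_succ' (forall_lt_succ' (forall_lt_succ' (forall_lt_succ' (forall_lt_succ' (forall_lt_succ' (forall_lt_succ' (forall_lt_succ' (forall_lt_succ' (forall_lt_succ' (forall_lt_succ' (forall_lt_succ' (forall_lt_succ' (forall_lt_succ' (forall_lt_succ' (forall_lt_succ' (forall_lt_succ' (forall_lt_succ' (forall_lt_succ' (forall_lt_succ' (forall_lt_succ'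 (forall_lt_succ' (forall_lt_succ' (forall_lt_succ' (forall_lt_succ' (forall_lt_succ' (forall_lt_succ' (forall_lt_succ' (forall_lt_succ' (forall_lt_succ' (forall_lt_succ' (forall_lt_succ' (forall_lt_succ' (forall_lt_succ' (forall_lt_succ' (forall_lt_succ' forall_lt_zero' vchkb0) vchkb1) vchkb2) vchkb3) vchkb4) vchkb5) vchkb6) vchkb7) vchkb8) vchkb9) vchkb10) vchkb11) vchkb12) vchkb13) vchkb14) vchkb15) vchkb16) vchkb17) vchkb18) vchkb19) vchkb20) vchkb21) vchkb22) vchkb23) vchkb24) vchkb25) vchkb26) vchkb27) vchkb28) vchkb29) vchkb30) vchkb31) vchkb32) vchkb33) vchkb34) vchkb35) vchkb36) vchkb37) vchkb38) vchkb39) vchkb40) vchkb41) vchkb42) vchkb43) vchkb44) vchkb45) vchkb46) vchkb47) vchkb48) vchkb49)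
theorem vchk : ∀ c < 69615, vchkf c = true := fun c hc =>
  allR_glue (d := 10) (n := 68) (forall_lt_succ' (forall_lt_succ' (forall_lt_succ' (forall_lt_succ' (forall_lt_succ' (forall_lt_succ' (forall_lt_succ' (forall_lt_succ' (forall_lt_succ' (forall_lt_succ' (forall_lt_succ' (forall_lt_succ' (forall_lt_succ' (forall_lt_succ' (forall_lt_succ' (forall_lt_succ' (forall_lt_succ' (forall_lt_succ' vchka50 vchkb50) vchkb51) vchkb52) vchkb53) vchkb54) vchkb55) vchkb56) vchkb57) vchkb58) vchkb59) vchkb60) vchkb61) vchkb62) vchkb63) vchkb64) vchkb65) vchkb66) vchkb67) c (lt_of_lt_of_le hc (by norm_num))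

theorem schk : ∀ c < 69615, schkf c = true := fun c hc =>
  allR_glue (d := 15) (n := 3) (forall_lt_succ' (forall_lt_succ' (forall_lt_succ' forall_lt_zero' schkb0) schkb1) schkb2) c (lt_of_lt_of_le hc (by norm_num))

theorem data : Vec.VecData P ok E Cs 8 69615 T Bs CU CI :=
  ⟨V, S, CW, vchk, schk, by decide +kernel⟩

/-- the numbering of the coordinates -/
def e : Lie.chevF4.Idx ≃ Fin P.n := finSumFinEquiv (m := 4) (n := 48)

/-- the matrices -/
noncomputable def M (i : ℕ) : Matrix (Lie.chevF4.Idx) (Lie.chevF4.Idx) (ZMod 2) := Vec.mat P e (1 : ZMod 2) (nthW Cs i)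

theorem cod : Vec.AllCod P e (1 : ZMod 2) Cs 8 CU CI :=
  ⟨by decide +kernel, by decide +kernel, by decide +kernel⟩

theorem snd {F : Type*} [Field F] {φ : ZMod 2 →+* F} (h : Emb φ 2 1 (1 : ZMod 2)) :
    Vec.SoundL P e (φ (1 : ZMod 2)) ⊥ E :=
  Vec.soundL_xE1 rfl (by exact_mod_cast h.char)

theorem adm {F : Type*} [Field F] {φ : ZMod 2 →+* F} (h : Emb φ 2 1 (1 : ZMod 2)) :
    Vec.Adm P e (φ (1 : ZMod 2)) ⊥ ok :=
  Vec.adm_two h.indep (by decide +kernel)

theorem model {F : Type*} [Field F] {φ : ZMod 2 →+* F} (h : Emb φ 2 1 (1 : ZMod 2))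
    {G : Type*} [Group G] (ρ : G →* Matrix (Lie.chevF4.Idx) (Lie.chevF4.Idx) F) (hρ : Function.Injective ρ)
    (hg : ∀ i < 8, ∃ x, ρ x = (M i).map φ) :
    ∃ K : Subgroup G, Model K 69615 8 T Bs :=
  data.model' φ (by decide) (by decide) (adm h) (snd h) cod ρ hρ hg

end Cfsg.Agent.H3.F42
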